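import Cfsg.Agent.OD.Pre
import Cfsg.Agent.H6.Top2
set_option autoImplicit false
set_option maxRecDepth 100000
set_option Elab.async false
set_option linter.all false
namespace CfH6.S16A
open CfH6 MulAction
noncomputable def n0_0 : Net := mkNet (nat_lit 20) [(nat_lit 10, (nat_lit 0xf63d8)), (nat_lit 5, (nat_lit 0x30800))] [((nat_lit 0x21420), nat_lit 1), ((nat_lit 0x5280a), nat_lit 1), ((nat_lit 0x29400), nat_lit 1), ((nat_lit 0x52800), nat_lit 1), ((nat_lit 0x21400), nat_lit 1)]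
noncomputable def n0_1 : Net := mkNet (nat_lit 20) [(nat_lit 10, (nat_lit 0x370dc)), (nat_lit 5, (nat_lit 0x30b18))] [((nat_lit 0x90a0), nat_lit 1), ((nat_lit 0x294a), nat_lit 1), ((nat_lit 0x14a0), nat_lit 1), ((nat_lit 0x2940), nat_lit 1), ((nat_lit 0x10a0), nat_lit 1)]
noncomputable def n0_2 : Net := mkNet (nat_lit 20) [(nat_lit 10, (nat_lit 0xec3b0)), (nat_lit 5, (nat_lit 0x5d294))] [((nat_lit 0x1424), nat_lit 1), ((nat_lit 0x52142), nat_lit 1), ((nat_lit 0x290a4), nat_lit 1), ((nat_lit 0x40940), nat_lit 1), ((nat_lit 0x20), nat_lit 1)]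
noncomputable def n0_3 : Net := mkNet (nat_lit 20) [(nat_lit 10, (nat_lit 0xfe380)), (nat_lit 5, (nat_lit 0xf8318))] [((nat_lit 0x294a1), nat_lit 1), ((nat_lit 0x52940), nat_lit 1), ((nat_lit 0x294a0), nat_lit 1), ((nat_lit 0x52940), nat_lit 1), ((nat_lit 0x294a0), nat_lit 1)]
noncomputable def n1_3 : Net := mkNet (nat_lit 20) [(nat_lit 10, (nat_lit 0x5c11e)), (nat_lit 5, (nat_lit 0xb7284))] [((nat_lit 0x94a0), nat_lit 1), ((nat_lit 0x40900), nat_lit 1), ((nat_lit 0x21080), nat_lit 1), ((nat_lit 0x40), nat_lit 1)]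
noncomputable def n2_0 : Net := mkNet (nat_lit 20) [(nat_lit 10, (nat_lit 0xf8380)), (nat_lit 5, (nat_lit 0xc039c))] [((nat_lit 0x10840), nat_lit 1), ((nat_lit 0x294a0), nat_lit 1), ((nat_lit 0x52940), nat_lit 1), ((nat_lit 0x21080), nat_lit 1)]
noncomputable def nets0 : List Net := [n0_0, n0_1, n0_2, n0_3]
noncomputable def nets1 : List Net := [n0_0, n0_1, n0_2, n1_3]
def ws1 : List (List ℕ) := [[0],
  [1],
  [2],
  [3, 1, 2, 3, 2, 3, 2, 3]]
noncomputable def nets2 : List Net := [n2_0]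
def ws2 : List (List ℕ) := [[1, 3, 0, 3, 2]]
def sig : List (List ℕ) := [[0],
  [1],
  [2],
  [3]]
def eqs0 : List (List ℕ × List ℕ) := [([0, 0], []),
  ([1, 1], []),
  ([2, 2], []),
  ([3, 3], []),
  ([0, 1], [1, 0]),
  ([0, 2], [2, 0]),
  ([1, 2], [2, 1]),
  ([0, 2, 3, 0, 2, 3, 2, 3, 1], [3, 2, 3, 1, 2, 3, 2, 3, 2]),
  ([0, 1, 3, 0, 1, 3, 0, 1], [3, 0, 1, 3, 0, 1, 3]),
  ([1, 3, 1, 3, 1], [3, 1, 3, 1, 3]),
  ([0, 3, 0], [3, 0, 3])]
def eqs : List (List ℕ × List ℕ) := eqs0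
def lU : List (ℕ × ℕ) := [(0, 17)]
noncomputable def U : ℕ := ivls lU
def l1 : List (ℕ × ℕ) := [(1, 16)]
noncomputable def S1 : ℕ := ivls l1
def w1 : List ℕ := [3]
noncomputable def J : List (List ℕ × ℕ × ℕ) := [(w1, 1, S1)]
def lBig : List (ℕ × ℕ) := [(1, 16)]
noncomputable def J1 : List (List ℕ × ℕ × ℕ) := [([0], 1, S1)]
def ex : List (List ℕ) := [[1, 2, 3]]
def bs' : List ℕ := [0, 1, 2]
end CfH6.S16A
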